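import Mathlib
import Cfsg.Prelude.Def_CaseTheorems
import Cfsg.Agent.BSW.Recog
import Cfsg.Agent.BSW.DihedralEight
import Cfsg.Agent.BSW.DihedralCz
import Cfsg.Agent.BSW.Four
import Cfsg.Agent.PCore.Basic
import Cfsg.Agent.Transfer.SmallSylow

/-!
Simple groups with dihedral Sylow 2-subgroups and a small core in the involution centraliser.
-/

set_option autoImplicit false

namespace CfsgLib.BSW

open CfsgLib.Invol

universe u

/-- One class of involutions. -/
theorem dihedral_simple_isConj {G : Type u} [Group G] [Finite G] [IsSimpleGroup G] (S : Sylow 2 G) {n : ℕ}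
    (hn : 2 ≤ n) (e : (S : Subgroup G) ≃* DihedralGroup n) {x y : G} (hx : orderOf x = 2) (hy : orderOf y = 2) :
    IsConj x y := by
  classical
  haveI : Fact (Nat.Prime 2) := ⟨Nat.prime_two⟩
  haveI : NeZero n := ⟨by omega⟩
  have hS : Nat.card ↥(S : Subgroup G) = 2 * n := by rw [Nat.card_congr e.toEquiv, DihedralGroup.nat_card]
  obtain ⟨j, hj⟩ := IsPGroup.iff_card.1 S.isPGroup'
  have h2G : 2 * n ∣ Nat.card G := hS ▸ Subgroup.card_subgroup_dvd_card _
  have hnab : ∃ a b : G, a * b ≠ b * a := by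
    by_contra hc
    push Not at hc
    have hx1 := ne_one_of_orderOf hx
    have hn' : (Subgroup.zpowers x).Normal := ⟨fun a ha g => by rw [hc g a, mul_inv_cancel_right]; exact ha⟩
    rcases hn'.eq_bot_or_eq_top with h | h
    · exact hx1 (Subgroup.zpowers_eq_bot.1 h)
    · have := Nat.le_of_dvd Nat.card_pos h2G
      rw [← Subgroup.card_top (G := G), ← h, Nat.card_zpowers, hx] at this
      omega
  have hncomp := CfsgLib.Transfer.not_hasNormalPComplement_of_simple (p := 2) hnab
    ((dvd_mul_right 2 n).trans h2G)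
  rcases eq_or_lt_of_le hn with rfl | hn3
  · -- the four group
    have hV : Nat.card ↥(S : Subgroup G) = 4 := hS
    have hexp : ∀ v ∈ (S : Subgroup G), v * v = 1 := fun v hv => by
      have : ∀ w : DihedralGroup 2, w * w = 1 := by decide
      have h := this (e ⟨v, hv⟩)
      rw [← map_mul] at h
      exact congrArg Subtype.val (e.injective (h.trans (map_one e).symm))
    have hnl : ¬ CfsgLib.Transfer.LocallyTrivial 2 G := fun h =>
      hncomp (CfsgLib.Transfer.frobenius_normal_complement h)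
    have : ∃ m : G, m ∈ Subgroup.normalizer ((S : Subgroup G) : Set G) ∧ Odd (orderOf m) ∧
        ∃ v ∈ (S : Subgroup G), m * v * m⁻¹ ≠ v := by
      by_contra hcon
      push Not at hcon
      refine hnl (CfsgLib.Transfer.locallyTrivial_of_sylow S fun Q hQ m hm hmo => ?_)
      refine Subgroup.mem_centralizer_iff.2 fun q hq => ?_
      rcases eq_or_ne q 1 with rfl | hq1
      · simp
      have hmo' : Odd (orderOf m) := Nat.coprime_two_right.1 hmo
      by_cases hQS : Q = (S : Subgroup G)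
      · exact (mul_inv_eq_iff_eq_mul.1 (hcon m (hQS ▸ hm) hmo' q (hQS ▸ hq))).symm
      · have hQc : Nat.card ↥Q ≤ 2 := by
          have hd : Nat.card ↥Q ∣ 2 ^ 2 := by
            rw [show 2 ^ 2 = 4 from rfl, ← hV]
            exact Subgroup.card_dvd_of_le hQ
          obtain ⟨i, hi, hiQ⟩ := (Nat.dvd_prime_pow Nat.prime_two).1 hd
          have : Nat.card ↥Q ≠ 4 := fun h => hQS (Subgroup.eq_of_le_of_card_ge hQ (by rw [h, hV]))
          interval_cases i <;> omega
        have hzq : Subgroup.zpowers q = Q := Subgroup.eq_of_le_of_card_ge (Subgroup.zpowers_le.2 hq) (by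
          have h2 : orderOf q = 2 := orderOf_eq_two (hexp q (hQ hq)) hq1
          rw [Nat.card_zpowers, h2]; exact hQc)
        have hmq : m * q * m⁻¹ ∈ Subgroup.zpowers q := hzq.symm ▸ (Subgroup.mem_normalizer_iff.1 hm q).1 hq
        obtain ⟨i, hi⟩ := hmq
        have hq2 := hexp q (hQ hq)
        rcases Int.even_or_odd' i with ⟨a, rfl | rfl⟩
        · simp only [zpow_mul, zpow_two, hq2, one_zpow] at hi
          exact absurd (conj_eq_one_iff.1 hi.symm) hq1
        · simp only [zpow_add, zpow_mul, zpow_two, hq2, one_zpow, one_mul, zpow_one] at hi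
          exact (mul_inv_eq_iff_eq_mul.1 hi.symm).symm
    obtain ⟨m, hm, hmo, v, hv, hmv⟩ := this
    have hv1 : v ≠ 1 := fun h => hmv (by rw [h]; group)
    have hmem : ∀ w ∈ (S : Subgroup G), m * w * m⁻¹ ∈ (S : Subgroup G) := fun w hw =>
      (Subgroup.mem_normalizer_iff.1 hm w).1 hw
    have hu1 : m * v * m⁻¹ ≠ 1 := fun h => hv1 (conj_eq_one_iff.1 h)
    have hel : ∀ c ∈ (S : Subgroup G), c = 1 ∨ c = v ∨ c = m * v * m⁻¹ ∨ c = v * (m * v * m⁻¹) := fun c hc =>
      four_elements hV hv (hmem v hv) hv1 hu1 (Ne.symm hmv) (hexp v hv) hc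
    have hw : m * (m * v * m⁻¹) * m⁻¹ = v * (m * v * m⁻¹) := by
      rcases hel _ (hmem _ (hmem v hv)) with h | h | h | h
      · exact absurd (conj_eq_one_iff.1 h) hu1
      · exfalso
        obtain ⟨a, ha⟩ := hmo
        refine hmv ?_
        have hc : Commute (m * m) v := by
          show m * m * v = v * (m * m)
          calc m * m * v = m * (m * v * m⁻¹) * m⁻¹ * (m * m) := by group
            _ = v * (m * m) := by rw [h]
        have h2 : Commute (m ^ (2 * a + 1) * (m * m) ^ (-(a : ℤ))) v := by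
          rw [← ha, pow_orderOf_eq_one, one_mul]; exact hc.zpow_left _
        have e2 : m ^ (2 * a + 1) * (m * m) ^ (-(a : ℤ)) = m := by
          rw [zpow_neg, zpow_natCast, ← pow_two, ← pow_mul, mul_inv_eq_iff_eq_mul, ← pow_succ']
        rw [e2] at h2
        exact mul_inv_eq_iff_eq_mul.2 h2.eq
      · exact absurd (mul_left_cancel (mul_right_cancel h)) hmv
      · exact h
    have hcl : ∀ c ∈ (S : Subgroup G), c ≠ 1 → IsConj v c := by
      intro c hc hc1
      rcases hel c hc with h | h | h | h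
      · exact absurd h hc1
      · rw [h]
      · exact isConj_iff.2 ⟨m, h.symm⟩
      · exact isConj_iff.2 ⟨m * m, by rw [h, ← hw]; group⟩
    have hall : ∀ a : G, orderOf a = 2 → IsConj v a := by
      intro a ha
      obtain ⟨T, hT⟩ := (IsPGroup.of_card (n := 1) (by rw [Nat.card_zpowers, ha, pow_one]) :
        IsPGroup 2 ↥(Subgroup.zpowers a)).exists_le_sylow
      obtain ⟨g, hg⟩ := MulAction.exists_smul_eq G T S
      have h : g * a * g⁻¹ ∈ (S : Subgroup G) := by
        rw [← hg]
        exact ⟨a, hT (Subgroup.mem_zpowers a), rfl⟩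
      exact (hcl _ h fun e => ne_one_of_orderOf ha (conj_eq_one_iff.1 e)).trans (isConj_iff.2 ⟨g⁻¹, by group⟩)
    exact (hall x hx).symm.trans (hall y hy)
  · -- order at least 8
    have hO : Cfsg.pResidual 2 G = ⊤ := by
      refine pResidual_eq_top_of_no_index_two fun H hH => ?_
      have hHn : H.Normal := Subgroup.normal_of_index_eq_two hH
      rcases hHn.eq_bot_or_eq_top with h | h
      · rw [h, Subgroup.index_bot] at hH
        have := Nat.le_of_dvd Nat.card_pos h2G
        omega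
      · rw [h, Subgroup.index_top] at hH; omega
    obtain ⟨i, hi⟩ : ∃ i, n = 2 ^ i := by
      obtain ⟨i, -, hi⟩ := (Nat.dvd_prime_pow Nat.prime_two).1 (show n ∣ 2 ^ j from ⟨2, by rw [← hj, hS, mul_comm]⟩)
      exact ⟨i, hi⟩
    subst hi
    have hi2 : 2 ≤ i := by
      rcases i with _ | _ | i <;> simp at hn3 ⊢
    exact isConj_iff.2 (Cfsg.Agent.S0107.result S i hi2 ⟨e⟩ hO x y hx hy)

/-- The structure. -/
theorem structured_of_dihedral_core {G : Type u} [Group G] [Finite G] [IsSimpleGroup G] (S : Sylow 2 G) {n : ℕ}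
    (hn : 2 ≤ n) (e : (S : Subgroup G) ≃* DihedralGroup n) {t : G} (ht : orderOf t = 2)
    (htS : t ∈ (S : Subgroup G)) (htZ : ∀ s ∈ (S : Subgroup G), s * t = t * s) {O : Subgroup G}
    (hO : O = (Cfsg.oddCore ↥(cz t)).map (cz t).subtype)
    (ha : O ≠ ⊥ → IsCyclic ((S : Subgroup G) ⊓ Subgroup.centralizer (O : Set G) : Subgroup G) ∧
      ((S : Subgroup G) ⊓ Subgroup.centralizer (O : Set G)).relIndex (S : Subgroup G) = 2)
    (hb : ∀ s ∈ (S : Subgroup G), s ∉ Subgroup.centralizer (O : Set G) → ∀ y ∈ O, s * y * s⁻¹ = y⁻¹)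
    (hc : ∀ Y : Subgroup G, Y ≤ O → Y ≠ ⊥ → Subgroup.normalizer (Y : Set G) ≤ cz t) :
    Structured G := by
  classical
  haveI : Fact (Nat.Prime 2) := ⟨Nat.prime_two⟩
  haveI : NeZero n := ⟨by omega⟩
  have ht1 : t ≠ 1 := ne_one_of_orderOf ht
  have hSC : (S : Subgroup G) ≤ cz t := fun s hs => mem_cz.2 (htZ s hs)
  have hOC : O ≤ cz t := hO ▸ Subgroup.map_subtype_le _
  have hOodd : Odd (Nat.card ↥O) := by
    rw [hO, ← Nat.card_congr (Subgroup.equivMapOfInjective _ _ (cz t).subtype_injective).toEquiv]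
    exact Nat.coprime_two_right.1 (CfsgLib.PCore.pPrimeCore_coprime 2 ↥(cz t))
  have hOn : cz t ≤ Subgroup.normalizer (O : Set G) := by
    intro c hc
    have hN : (Cfsg.oddCore ↥(cz t)).Normal :=
      haveI := CfsgLib.PCore.pPrimeCore_characteristic 2 ↥(cz t)
      inferInstance
    have key : ∀ c ∈ cz t, ∀ w ∈ O, c * w * c⁻¹ ∈ O := by
      intro c hc w hw
      rw [hO] at hw ⊢
      obtain ⟨v, hv, rfl⟩ := hw
      exact ⟨⟨c, hc⟩ * v * ⟨c, hc⟩⁻¹, hN.conj_mem v hv _, rfl⟩
    refine Subgroup.mem_normalizer_iff.2 fun w => ⟨key c hc w, fun h => ?_⟩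
    have := key c⁻¹ (inv_mem hc) _ h
    simpa [mul_assoc] using this
  have he : ∀ a b : ↥(S : Subgroup G), e a = e b → a = b := fun a b h => e.injective h
  -- the cyclic subgroup
  obtain ⟨A, hAS, hAcyc, hAidx, htA, hAO⟩ : ∃ A : Subgroup G, A ≤ (S : Subgroup G) ∧ IsCyclic ↥A ∧
      A.relIndex (S : Subgroup G) = 2 ∧ t ∈ A ∧ (∀ a ∈ A, ∀ w ∈ O, w * a = a * w) := by
    by_cases hO1 : O = ⊥
    · have hw : ∀ a : G, ∀ w ∈ O, w * a = a * w := fun a w hw => by
        rw [hO1, Subgroup.mem_bot] at hw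
        rw [hw, one_mul, mul_one]
      rcases hc : e ⟨t, htS⟩ with k | k
      · refine ⟨(Subgroup.zpowers (e.symm (DihedralGroup.r 1))).map (S : Subgroup G).subtype, Subgroup.map_subtype_le _,
          ?_, ?_, ?_, fun a _ => hw a⟩
        · exact isCyclic_of_surjective _ (Subgroup.equivMapOfInjective _ _ (S : Subgroup G).subtype_injective).surjective
        · show (Subgroup.subgroupOf _ (S : Subgroup G)).index = 2
          rw [Subgroup.subgroupOf, Subgroup.comap_map_eq_self_of_injective (S : Subgroup G).subtype_injective]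
          have h := Subgroup.card_mul_index (Subgroup.zpowers (e.symm (DihedralGroup.r 1)))
          rw [Nat.card_zpowers, MulEquiv.orderOf_eq, DihedralGroup.orderOf_r_one, Nat.card_congr e.toEquiv,
            DihedralGroup.nat_card, mul_comm 2 n] at h
          exact Nat.eq_of_mul_eq_mul_left (by omega) h
        · refine ⟨⟨t, htS⟩, ⟨(k.val : ℤ), he _ _ ?_⟩, rfl⟩
          show e ((e.symm (DihedralGroup.r 1)) ^ (k.val : ℤ)) = _
          rw [map_zpow, MulEquiv.apply_symm_apply, DihedralGroup.r_one_zpow, hc, Int.cast_natCast,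
            ZMod.natCast_zmod_val]
      · have hn2 : n = 2 := by
          have h : e ⟨t, htS⟩ * DihedralGroup.r 1 = DihedralGroup.r 1 * e ⟨t, htS⟩ := by
            obtain ⟨w, hw'⟩ := e.surjective (DihedralGroup.r 1)
            rw [← hw', ← map_mul, ← map_mul]
            exact congrArg e (Subtype.ext (htZ w w.2).symm)
          rw [hc, DihedralGroup.sr_mul_r, DihedralGroup.r_mul_sr] at h
          have h2 : ((2 : ℕ) : ZMod n) = 0 := by
            have := DihedralGroup.sr.inj h
            push_cast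
            linear_combination this
          have := Nat.le_of_dvd two_pos ((ZMod.natCast_eq_zero_iff 2 n).1 h2)
          omega
        refine ⟨Subgroup.zpowers t, Subgroup.zpowers_le.2 htS, inferInstance, ?_, Subgroup.mem_zpowers t,
          fun a _ => hw a⟩
        show (Subgroup.subgroupOf _ (S : Subgroup G)).index = 2
        have h := Subgroup.card_mul_index ((Subgroup.zpowers t).subgroupOf (S : Subgroup G))
        rw [Nat.card_congr (Subgroup.subgroupOfEquivOfLe (Subgroup.zpowers_le.2 htS)).toEquiv, Nat.card_zpowers, ht,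
          Nat.card_congr e.toEquiv, DihedralGroup.nat_card, hn2] at h
        omega
    · obtain ⟨h1, h2⟩ := ha hO1
      exact ⟨_, inf_le_left, h1, h2,
        Subgroup.mem_inf.2 ⟨htS, Subgroup.mem_centralizer_iff.2 fun w hw => mem_cz.1 (hOC hw)⟩,
        fun a ha w hw => Subgroup.mem_centralizer_iff.1 (Subgroup.mem_inf.1 ha).2 w hw⟩
  have hAab : ∀ a ∈ A, ∀ b ∈ A, a * b = b * a := fun a ha b hb =>
    congrArg Subtype.val (IsCyclic.commGroup.mul_comm (⟨a, ha⟩ : ↥A) ⟨b, hb⟩)
  have hA2 : ∀ a ∈ A, a * a = 1 → a = 1 ∨ a = t := by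
    intro a ha ha2
    by_contra hne
    push Not at hne
    haveI := Fintype.ofFinite ↥A
    have h1 := IsCyclic.card_pow_eq_one_le (α := ↥A) (n := 2) two_pos
    have hsub : ({⟨1, one_mem A⟩, ⟨a, ha⟩, ⟨t, htA⟩} : Finset ↥A) ⊆ Finset.univ.filter fun x => x ^ 2 = 1 := by
      intro x hx
      simp only [Finset.mem_insert, Finset.mem_singleton] at hx
      refine Finset.mem_filter.2 ⟨Finset.mem_univ _, Subtype.ext ?_⟩
      rcases hx with rfl | rfl | rfl
      · show (1 : G) ^ 2 = 1; simp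
      · show a ^ 2 = 1; rw [pow_two, ha2]
      · show t ^ 2 = 1; rw [pow_two, mul_self_of_orderOf ht]
    have h2 := (Finset.card_le_card hsub).trans h1
    rw [Finset.card_insert_of_notMem, Finset.card_insert_of_notMem, Finset.card_singleton] at h2
    · omega
    · simp [hne.2]
    · simp [Ne.symm hne.1, Ne.symm ht1]
  have hprod : ∀ x ∈ (S : Subgroup G), ∀ y ∈ (S : Subgroup G), x ∉ A → y ∉ A → x⁻¹ * y ∈ A := by
    intro x hx y hy hxA hyA
    have h := (Subgroup.mul_mem_iff_of_index_two (H := A.subgroupOf (S : Subgroup G)) hAidx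
      (a := (⟨x, hx⟩ : ↥(S : Subgroup G))⁻¹) (b := ⟨y, hy⟩)).2
      (iff_of_false (fun h => hxA (by simpa using inv_mem (Subgroup.mem_subgroupOf.1 h))) fun h => hyA (Subgroup.mem_subgroupOf.1 h))
    exact Subgroup.mem_subgroupOf.1 h
  obtain ⟨s, hsS, hsA, i, hsi⟩ : ∃ (s : G) (hs : s ∈ (S : Subgroup G)), s ∉ A ∧ ∃ i, e ⟨s, hs⟩ = DihedralGroup.sr i := by
    by_contra hcon
    push Not at hcon
    have hall : ∀ i, ((e.symm (DihedralGroup.sr i) : ↥(S : Subgroup G)) : G) ∈ A := fun i => by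
      by_contra h
      exact hcon _ (e.symm (DihedralGroup.sr i)).2 h i (e.apply_symm_apply _)
    have htop : ∀ x : ↥(S : Subgroup G), (x : G) ∈ A := fun x => by
      rcases hx : e x with i | i
      · have h := mul_mem (hall 0) (hall i)
        rw [← Subgroup.coe_mul, ← map_mul, DihedralGroup.sr_mul_sr, sub_zero, ← hx, e.symm_apply_apply] at h
        exact h
      · have h := hall i
        rwa [← hx, e.symm_apply_apply] at h
    have : A.relIndex (S : Subgroup G) = 1 := Subgroup.relIndex_eq_one.2 fun x hx => htop ⟨x, hx⟩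
    omega
  have hs2 : orderOf s = 2 := by
    rw [← Subgroup.orderOf_mk (G := G) s hsS, ← e.orderOf_eq, hsi, DihedralGroup.orderOf_sr]
  have hsinvA : ∀ a ∈ A, s * a * s⁻¹ = a⁻¹ := by
    intro a ha
    rcases hea : e ⟨a, hAS ha⟩ with j | j
    · refine congrArg Subtype.val (he (⟨s, hsS⟩ * ⟨a, hAS ha⟩ * (⟨s, hsS⟩ : ↥(S : Subgroup G))⁻¹) ⟨a, hAS ha⟩⁻¹ ?_)
      rw [map_mul, map_mul, map_inv, map_inv, hsi, hea, DihedralGroup.inv_sr, DihedralGroup.inv_r,
        DihedralGroup.sr_mul_r, DihedralGroup.sr_mul_sr]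
      congr 1
      ring
    · have ha2 : a * a = 1 := congrArg Subtype.val (he (⟨a, hAS ha⟩ * ⟨a, hAS ha⟩) 1 (by
        rw [map_mul, hea, DihedralGroup.sr_mul_self, map_one]))
      rw [inv_eq_of_mul_eq_one_right ha2]
      rcases hA2 a ha ha2 with rfl | rfl
      · simp
      · rw [htZ s hsS, mul_inv_cancel_right]
  have hsinvO : ∀ w ∈ O, s * w * s⁻¹ = w⁻¹ := by
    intro w hw
    by_cases hO1 : O = ⊥
    · rw [hO1, Subgroup.mem_bot] at hw; simp [hw]
    refine hb s hsS (fun h => hsA ?_) w hw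
    have h1 : A ≤ (S : Subgroup G) ⊓ Subgroup.centralizer (O : Set G) := fun a ha =>
      ⟨hAS ha, Subgroup.mem_centralizer_iff.2 fun w hw => hAO a ha w hw⟩
    have h2 : Nat.card ↥A = Nat.card ↥((S : Subgroup G) ⊓ Subgroup.centralizer (O : Set G) : Subgroup G) := by
      have e1 := Subgroup.card_mul_index (A.subgroupOf (S : Subgroup G))
      have e2 := Subgroup.card_mul_index
        (((S : Subgroup G) ⊓ Subgroup.centralizer (O : Set G)).subgroupOf (S : Subgroup G))
      rw [show (A.subgroupOf (S : Subgroup G)).index = 2 from hAidx,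
        Nat.card_congr (Subgroup.subgroupOfEquivOfLe hAS).toEquiv] at e1
      rw [show (((S : Subgroup G) ⊓ Subgroup.centralizer (O : Set G)).subgroupOf (S : Subgroup G)).index = 2 from (ha hO1).2,
        Nat.card_congr (Subgroup.subgroupOfEquivOfLe inf_le_left).toEquiv] at e2
      omega
    rw [Subgroup.eq_of_le_of_card_ge h1 h2.ge]
    exact ⟨hsS, h⟩
  have hOab : ∀ v ∈ O, ∀ w ∈ O, v * w = w * v := by
    intro v hv w hw
    have h := hsinvO _ (mul_mem hv hw)
    rw [show s * (v * w) * s⁻¹ = (s * v * s⁻¹) * (s * w * s⁻¹) by group, hsinvO v hv, hsinvO w hw, mul_inv_rev] at h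
    have := congrArg (·⁻¹) h
    simpa using this.symm
  -- `K`
  obtain ⟨K, hKdef⟩ : ∃ K : Subgroup G, K = A ⊔ O := ⟨_, rfl⟩
  have hAK : A ≤ K := hKdef ▸ le_sup_left
  have hOK : O ≤ K := hKdef ▸ le_sup_right
  have hKdec : ∀ k ∈ K, ∃ a ∈ A, ∃ w ∈ O, k = a * w := by
    intro k hk
    have h : k ∈ ((A ⊔ O : Subgroup G) : Set G) := by rw [← hKdef]; exact hk
    rw [Subgroup.coe_mul_of_left_le_normalizer_right A O (fun a ha => hOn (hSC (hAS ha)))] at h
    obtain ⟨a, ha, w, hw, rfl⟩ := h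
    exact ⟨a, ha, w, hw, rfl⟩
  have hKab : ∀ x ∈ K, ∀ y ∈ K, x * y = y * x := by
    intro x hx y hy
    obtain ⟨a, ha, v, hv, rfl⟩ := hKdec x hx
    obtain ⟨b, hb', w, hw, rfl⟩ := hKdec y hy
    calc a * v * (b * w) = a * (v * b) * w := by group
      _ = a * (b * v) * w := by rw [hAO b hb' v hv]
      _ = (a * b) * (v * w) := by group
      _ = (b * a) * (w * v) := by rw [hAab a ha b hb', hOab v hv w hw]
      _ = b * (a * w) * v := by group
      _ = b * (w * a) * v := by rw [hAO a ha w hw]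
      _ = _ := by group
  have hAp : IsPGroup 2 ↥A := S.isPGroup'.to_le hAS
  have hAOb : ∀ a ∈ A, a ∈ O → a = 1 := by
    intro a ha haO
    obtain ⟨j, hj⟩ := hAp ⟨a, ha⟩
    have h1 := Subgroup.orderOf_dvd_natCard O haO
    have h2 : orderOf a ∣ 2 ^ j := orderOf_dvd_of_pow_eq_one (congrArg Subtype.val hj)
    exact orderOf_eq_one_iff.1 (Nat.eq_one_of_dvd_coprimes (Nat.Coprime.pow_right j (Nat.coprime_two_right.2 hOodd)) h1 h2)
  have hK2 : ∀ x ∈ K, x * x = 1 → x = 1 ∨ x = t := by
    intro x hx hx2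
    obtain ⟨a, ha, w, hw, rfl⟩ := hKdec x hx
    have h1 : a * a * (w * w) = 1 := by
      rw [← hx2]
      calc a * a * (w * w) = a * (a * w) * w := by group
        _ = a * (w * a) * w := by rw [hAO a ha w hw]
        _ = _ := by group
    have haa : a * a = 1 := hAOb _ (mul_mem ha ha) (by
      rw [eq_inv_of_mul_eq_one_left h1]; exact inv_mem (mul_mem hw hw))
    rw [haa, one_mul] at h1
    have hw1 : w = 1 := by
      by_contra hne
      have := Subgroup.orderOf_dvd_natCard O hw
      rw [orderOf_eq_two h1 hne] at this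
      exact (Nat.not_even_iff_odd.2 hOodd) (even_iff_two_dvd.2 this)
    rw [hw1, mul_one]
    exact hA2 a ha haa
  have hsK : s ∉ K := fun h => by
    rcases hK2 s h (mul_self_of_orderOf hs2) with h' | h'
    · exact ne_one_of_orderOf hs2 h'
    · exact hsA (h' ▸ htA)
  have hsinv : ∀ x ∈ K, s * x * s⁻¹ = x⁻¹ := by
    intro x hx
    obtain ⟨a, ha, w, hw, rfl⟩ := hKdec x hx
    rw [show s * (a * w) * s⁻¹ = (s * a * s⁻¹) * (s * w * s⁻¹) by group, hsinvA a ha, hsinvO w hw, mul_inv_rev]
    exact hKab _ (inv_mem (hAK ha)) _ (inv_mem (hOK hw))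
  have hKC : K ≤ cz t := hKdef ▸ sup_le (hAS.trans hSC) hOC
  have hH : K ⊔ Subgroup.zpowers s = cz t := by
    refine le_antisymm (sup_le hKC (Subgroup.zpowers_le.2 (hSC hsS))) ?_
    have hS' : (S : Subgroup G) ≤ K ⊔ Subgroup.zpowers s := by
      intro x hx
      by_cases hxA : x ∈ A
      · exact Subgroup.mem_sup_left (hAK hxA)
      · rw [← mul_inv_cancel_left s x]
        exact mul_mem (Subgroup.mem_sup_right (Subgroup.mem_zpowers s))
          (Subgroup.mem_sup_left (hAK (hprod s hsS x hx hsA hxA)))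
    obtain ⟨P, N, hN, hNP⟩ := centralizer_hasNormalPComplement S (by omega : n ≠ 0) ⟨e⟩ ht
    let S' : Sylow 2 ↥(cz t) := S.subtype hSC
    have hS'c : Nat.card ↥(P : Subgroup ↥(cz t)) = Nat.card ↥(S : Subgroup G) := by
      rw [Nat.card_congr (Sylow.equiv P S').toEquiv]
      exact Nat.card_congr (Subgroup.subgroupOfEquivOfLe hSC).toEquiv
    have hNle : N ≤ Cfsg.oddCore ↥(cz t) := CfsgLib.PCore.le_pPrimeCore hN (by
      have h := P.not_dvd_index
      rw [hNP.index_eq_card] at h
      exact (Nat.prime_two.coprime_iff_not_dvd.2 h).symm)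
    intro c hc
    have htop : N ⊔ (S' : Subgroup ↥(cz t)) = ⊤ := by
      refine Subgroup.eq_top_of_le_card _ ?_
      rw [← hNP.card_mul_card]
      refine Nat.le_of_dvd Nat.card_pos (Nat.Coprime.mul_dvd_of_dvd_of_dvd ?_ (Subgroup.card_dvd_of_le le_sup_left) ?_)
      · obtain ⟨j, hj⟩ := IsPGroup.iff_card.1 P.isPGroup'
        have h := P.not_dvd_index
        rw [hNP.index_eq_card] at h
        rw [hj]
        exact (Nat.prime_two.coprime_iff_not_dvd.2 h).symm.pow_right j
      · rw [Nat.card_congr (Sylow.equiv P S').toEquiv]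
        exact Subgroup.card_dvd_of_le le_sup_right
    have hle : (⊤ : Subgroup ↥(cz t)) ≤ (K ⊔ Subgroup.zpowers s).subgroupOf (cz t) := by
      rw [← htop]
      refine sup_le (fun v hv => ?_) fun v hv => ?_
      · refine Subgroup.mem_subgroupOf.2 (Subgroup.mem_sup_left (hOK ?_))
        rw [hO]; exact ⟨v, hNle hv, rfl⟩
      · exact Subgroup.mem_subgroupOf.2 (hS' hv)
    exact Subgroup.mem_subgroupOf.1 (hle (Subgroup.mem_top (⟨c, hc⟩ : ↥(cz t))))
  have hcases : ∀ c ∈ cz t, c ∈ K ∨ s * c ∈ K := by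
    intro c hc
    rw [← hH] at hc
    have hnorm : Subgroup.zpowers s ≤ Subgroup.normalizer (K : Set G) := Subgroup.zpowers_le.2 (
      Subgroup.mem_normalizer_iff.2 fun w => ⟨fun hw => by rw [hsinv w hw]; exact inv_mem hw, fun hw => by
        have h := hsinv _ hw
        rw [show s * (s * w * s⁻¹) * s⁻¹ = (s * s) * w * (s * s)⁻¹ by group, mul_self_of_orderOf hs2] at h
        have h' : w = (s * w * s⁻¹)⁻¹ := by simpa using h
        rw [h']; exact inv_mem hw⟩)
    have h : c ∈ ((K ⊔ Subgroup.zpowers s : Subgroup G) : Set G) := hc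
    rw [Subgroup.coe_mul_of_right_le_normalizer_left K _ hnorm] at h
    obtain ⟨k, hk, w, ⟨j, rfl⟩, rfl⟩ := h
    have hss := mul_self_of_orderOf hs2
    rcases Int.even_or_odd' j with ⟨q, rfl | rfl⟩
    · left; simp only [zpow_mul, zpow_two, hss, one_zpow, mul_one]; exact hk
    · right
      simp only [zpow_add, zpow_mul, zpow_two, hss, one_zpow, one_mul, zpow_one]
      rw [← mul_assoc, show s * k * s = s * k * s⁻¹ by rw [inv_eq_of_mul_eq_one_right hss], hsinv k hk]
      exact inv_mem hk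
  have hczO : ∀ x ∈ O, x ≠ 1 → cz x = K := by
    intro x hx hx1
    refine le_antisymm (fun g hg => ?_) fun g hg => mem_cz.2 (hKab g hg x (hOK hx))
    have hgt : g ∈ cz t := by
      refine hc (Subgroup.zpowers x) (Subgroup.zpowers_le.2 hx) (fun h => hx1 (Subgroup.zpowers_eq_bot.1 h)) ?_
      have hcomm : ∀ j : ℤ, g * x ^ j * g⁻¹ = x ^ j := fun j =>
        mul_inv_eq_iff_eq_mul.2 (Commute.zpow_right (show Commute g x from mem_cz.1 hg) j).eq
      refine Subgroup.mem_normalizer_iff.2 fun y => ⟨?_, ?_⟩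
      · rintro ⟨j, rfl⟩
        exact ⟨j, (hcomm j).symm⟩
      · rintro ⟨j, hj⟩
        exact ⟨j, mul_left_cancel (a := g) (mul_right_cancel (b := g⁻¹) ((hcomm j).trans hj))⟩
    refine (hcases g hgt).resolve_right fun h => ?_
    have h1 : (s * g) * x * (s * g)⁻¹ = x := by rw [hKab _ h x (hOK hx), mul_inv_cancel_right]
    have h2 : (s * g) * x * (s * g)⁻¹ = x⁻¹ := by
      rw [show (s * g) * x * (s * g)⁻¹ = s * (g * x * g⁻¹) * s⁻¹ by group, mem_cz.1 hg, mul_inv_cancel_right,
        hsinvO x hx]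
    have h3 : x * x = 1 := by
      nth_rewrite 1 [h1.symm.trans h2]
      exact inv_mul_cancel x
    have := Subgroup.orderOf_dvd_natCard O hx
    rw [orderOf_eq_two h3 hx1] at this
    exact (Nat.not_even_iff_odd.2 hOodd) (even_iff_two_dvd.2 this)
  have hTI : ∀ g : G, g ∉ cz t → K ⊓ K.map (MulAut.conj g).toMonoidHom = ⊥ := by
    intro g hg
    rw [Subgroup.eq_bot_iff_forall]
    intro x hx
    obtain ⟨hxK, y, hyK, hyx⟩ := Subgroup.mem_inf.1 hx
    have hyx' : g * y * g⁻¹ = x := hyx
    by_contra hx1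
    refine hg (mem_cz.2 ?_)
    have hfin : ∀ v ∈ K, g * v * g⁻¹ = t → g * t = t * g := fun v hv hv' => by
      have hvv : v * v = 1 := conj_eq_one_iff.1 (show g * (v * v) * g⁻¹ = 1 by
        rw [show g * (v * v) * g⁻¹ = (g * v * g⁻¹) * (g * v * g⁻¹) by group, hv', mul_self_of_orderOf ht])
      rcases hK2 v hv hvv with rfl | rfl
      · exact absurd (by simpa using hv'.symm) ht1
      · exact mul_inv_eq_iff_eq_mul.1 hv'
    obtain ⟨a, ha, w, hw, hxa⟩ := hKdec x hxK
    rcases eq_or_ne a 1 with rfl | ha1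
    · rw [one_mul] at hxa
      obtain ⟨b, hb', v, hv, hyb⟩ := hKdec y hyK
      have hyo : Odd (orderOf y) := by
        rw [← Invol.orderOf_conj g y, hyx', hxa]
        exact hOodd.of_dvd_nat (Subgroup.orderOf_dvd_natCard O hw)
      have hb1 : b = 1 := by
        refine hAOb b hb' ?_
        obtain ⟨j, hj⟩ := hyo
        have hpow : b ^ (2 * j + 1) * v ^ (2 * j + 1) = 1 := by
          rw [← (show Commute b v from (hAO b hb' v hv).symm).mul_pow, ← hyb, ← hj, pow_orderOf_eq_one]
        have h1 : b ^ (2 * j + 1) = 1 := hAOb _ (pow_mem hb' _) (by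
          rw [eq_inv_of_mul_eq_one_left hpow]; exact inv_mem (pow_mem hv _))
        obtain ⟨l, hl⟩ := hAp ⟨b, hb'⟩
        have h2 : orderOf b = 1 := Nat.eq_one_of_dvd_coprimes (Nat.Coprime.pow_right l (Nat.coprime_two_right.2 ⟨j, rfl⟩))
          (orderOf_dvd_of_pow_eq_one h1) (orderOf_dvd_of_pow_eq_one (congrArg Subtype.val hl))
        rw [orderOf_eq_one_iff.1 h2]
        exact one_mem _
      rw [hb1, one_mul] at hyb
      have hy1 : y ≠ 1 := fun h => hx1 (by rw [← hyx', h]; group)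
      have hmap : ∀ z : G, z ∈ K ↔ g * z * g⁻¹ ∈ K := fun z => by
        conv_lhs => rw [← hczO y (hyb ▸ hv) hy1]
        rw [← hczO x (hxa ▸ hw) hx1, ← hyx']
        exact (cz_conj g).symm
      have hgt : g * t * g⁻¹ = t := by
        rcases hK2 _ ((hmap t).1 (hAK htA)) (by
          rw [show g * t * g⁻¹ * (g * t * g⁻¹) = g * (t * t) * g⁻¹ by group, mul_self_of_orderOf ht]; group) with h | h
        · exact absurd (conj_eq_one_iff.1 h) ht1
        · exact h
      exact mul_inv_eq_iff_eq_mul.1 hgt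
    · obtain ⟨j, hj⟩ : ∃ j : ℕ, x ^ j = t := by
        have hxo : x ^ Nat.card ↥O = a ^ Nat.card ↥O := by
          rw [hxa, (show Commute a w from (hAO a ha w hw).symm).mul_pow,
            show w ^ Nat.card ↥O = 1 from orderOf_dvd_iff_pow_eq_one.1 (Subgroup.orderOf_dvd_natCard O hw), mul_one]
        obtain ⟨l, hl⟩ := hAp ⟨a, ha⟩
        obtain ⟨q, hq, hqo⟩ := (Nat.dvd_prime_pow Nat.prime_two).1
          (orderOf_dvd_of_pow_eq_one (congrArg Subtype.val hl) : orderOf a ∣ 2 ^ l)
        obtain ⟨q', rfl⟩ : ∃ q', q = q' + 1 := ⟨q - 1, by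
          rcases q with _ | q
          · exact absurd (orderOf_eq_one_iff.1 (by simpa using hqo)) ha1
          · omega⟩
        have hne : a ^ (Nat.card ↥O * 2 ^ q') ≠ 1 := fun h => by
          have hd := orderOf_dvd_of_pow_eq_one h
          rw [hqo] at hd
          have := ((Nat.prime_two.coprime_iff_not_dvd.2 (fun h => (Nat.not_even_iff_odd.2 hOodd) (even_iff_two_dvd.2 h))).pow_left
            (q' + 1)).dvd_of_dvd_mul_left hd
          have := Nat.le_of_dvd (by positivity) this
          rw [pow_succ] at this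
          have := Nat.two_pow_pos q'
          omega
        have hsq : a ^ (Nat.card ↥O * 2 ^ q') * a ^ (Nat.card ↥O * 2 ^ q') = 1 := by
          rw [← pow_add, ← orderOf_dvd_iff_pow_eq_one, hqo]
          exact ⟨Nat.card ↥O, by rw [pow_succ]; ring⟩
        refine ⟨Nat.card ↥O * 2 ^ q', ?_⟩
        rw [pow_mul, hxo, ← pow_mul]
        exact ((hA2 _ (pow_mem ha _) hsq).resolve_left hne)
      refine hfin (y ^ j) (pow_mem hyK j) ?_
      rw [← hj, ← hyx', ← conj_pow]
  have D : Hyp t s K := ⟨ht, hKab, hKC, hAK htA, hs2, hSC hsS, hsK, hH,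
    le_antisymm (fun x hx => by
      obtain ⟨hxK, hxs⟩ := Subgroup.mem_inf.1 hx
      have h1 := hsinv x hxK
      rw [show s * x = x * s from (mem_cz.1 hxs).symm, mul_inv_cancel_right] at h1
      have h2 : x * x = 1 := by nth_rewrite 1 [h1]; exact inv_mul_cancel x
      rcases hK2 x hxK h2 with h | h <;> rw [h]
      · exact one_mem _
      · exact Subgroup.mem_zpowers t)
    (Subgroup.zpowers_le.2 (Subgroup.mem_inf.2 ⟨hAK htA, mem_cz.2 (htZ s hsS).symm⟩)),
    hsinv, hTI, fun x y hx hy => dihedral_simple_isConj S hn e hx hy⟩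
  exact D.structured

end CfsgLib.BSW
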